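import Mathlib

set_option autoImplicit false

namespace Cfsg.Agent.Lib.Helper85.Qd

/-- two "quadratic" units `1+α`, `1+β` satisfying the braid relation, with `w² = 1`. -/
theorem ring_key {R : Type*} [Ring R] (α β : R) (hα : α * α = 0) (hβ : β * β = 0)
    (hw : (1 + α) * (1 + β) * (1 + α) = (1 + β) * (1 + α) * (1 + β))
    (hw2 : ((1 + α) * (1 + β) * (1 + α)) * ((1 + α) * (1 + β) * (1 + α)) = 1) :
    2 * (α * β) = 0 := by
  have e1 : (1 + α) * (1 + β) * (1 + α) = 1 + 2 * α + β + α * β + β * α + α * β * α + α * α := by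
    noncomm_ring
  have e2 : (1 + β) * (1 + α) * (1 + β) = 1 + 2 * β + α + β * α + α * β + β * α * β + β * β := by
    noncomm_ring
  have star : α + α * β * α = β + β * α * β := by
    rw [e1, e2, hα, hβ] at hw
    have h : α + α * β * α - (β + β * α * β)
        = (1 + 2 * α + β + α * β + β * α + α * β * α + 0)
          - (1 + 2 * β + α + β * α + α * β + β * α * β + 0) := by noncomm_ring
    rw [hw, sub_self] at h
    exact sub_eq_zero.1 h
  have h1 : α * β * α * β = -(α * β) := by
    have h := congrArg (fun x => α * x) star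
    simp only [mul_add] at h
    have l1 : α * (α * β * α) = (α * α) * β * α := by noncomm_ring
    have l2 : α * (β * α * β) = α * β * α * β := by noncomm_ring
    rw [hα, l1, hα, l2] at h
    simp only [zero_mul, add_zero] at h
    exact (neg_eq_of_add_eq_zero_right h.symm).symm ▸ rfl
  set w := (1 + α) * (1 + β) * (1 + α) with hwdef
  have hwe : w = 1 + 2 * α + β + α * β + β * α + α * β * α := by rw [e1, hα, add_zero]
  have w1 : w * (α * β) = β * α * β := by
    rw [hwe]
    have : (1 + 2 * α + β + α * β + β * α + α * β * α) * (α * β)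
        = α * β + 2 * ((α * α) * β) + β * α * β + α * β * α * β + β * (α * α) * β
          + α * β * (α * α) * β := by noncomm_ring
    rw [this, hα, h1]
    simp
  have w2 : w * (β * α * β) = -(α * β) := by
    rw [hwe]
    have : (1 + 2 * α + β + α * β + β * α + α * β * α) * (β * α * β)
        = β * α * β + 2 * (α * β * α * β) + (β * β) * α * β + α * (β * β) * α * β
          + β * (α * β * α * β) + α * β * (α * β * α * β) := by noncomm_ring
    rw [this, hβ, h1]
    have : α * β * -(α * β) = -(α * β * α * β) := by noncomm_ring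
    rw [this, h1]
    noncomm_ring
  have h3 : α * β = -(α * β) := by
    calc α * β = (w * w) * (α * β) := by rw [hw2, one_mul]
      _ = w * (w * (α * β)) := by rw [mul_assoc]
      _ = -(α * β) := by rw [w1, w2]
  have : 2 * (α * β) = α * β + α * β := by noncomm_ring
  rw [this]
  nth_rewrite 1 [h3]
  simp

theorem ring_eq {R : Type*} [Ring R] (α β : R) (hα : α * α = 0) (hβ : β * β = 0)
    (hw : (1 + α) * (1 + β) * (1 + α) = (1 + β) * (1 + α) * (1 + β))
    (h1 : α * β = 0) (h2 : β * α = 0) : α = β := by
  have e1 : (1 + α) * (1 + β) * (1 + α) = 1 + 2 * α + β + α * β + β * α + (α * β) * α + α * α := by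
    noncomm_ring
  have e2 : (1 + β) * (1 + α) * (1 + β) = 1 + 2 * β + α + β * α + α * β + (β * α) * β + β * β := by
    noncomm_ring
  rw [e1, e2, hα, hβ, h1, h2] at hw
  simp only [zero_mul, add_zero] at hw
  have h : α - β = (1 + 2 * α + β) - (1 + 2 * β + α) := by noncomm_ring
  rw [hw, sub_self] at h
  exact sub_eq_zero.1 h

end Cfsg.Agent.Lib.Helper85.Qd
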