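import Cfsg.Agent.Lib.Helper14.QuadAbstract
import Cfsg.Agent.Lib.Helper85.Nat.Main
import Cfsg.Agent.Lib.Helper85.Qd.QR

set_option autoImplicit false

namespace Cfsg.Agent.Lib.Helper85.Qd

open Matrix Cfsg.Agent.Lib.Helper14 Cfsg.Agent.Lib.Helper85.NatSL2

section toEnd

variable {U : Type*} [CommGroup U]

/-- automorphisms as elements of the endomorphism ring -/
def toEnd : MulAut U →* AddMonoid.End (Additive U) where
  toFun φ := MonoidHom.toAdditive φ.toMonoidHom
  map_one' := rfl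
  map_mul' _ _ := rfl

theorem toEnd_apply (φ : MulAut U) (u : Additive U) : toEnd φ u = Additive.ofMul (φ u.toMul) := rfl

theorem toEnd_injective : Function.Injective (toEnd (U := U)) := by
  intro φ ψ h
  ext u
  have := congrArg (fun f : AddMonoid.End (Additive U) => (f (Additive.ofMul u)).toMul) h
  exact this

theorem toEnd_quad {φ : MulAut U} (h : QuadAut φ) : (toEnd φ - 1) * (toEnd φ - 1) = 0 := by
  ext u
  have h1 := h u.toMul
  show toEnd φ (toEnd φ u - u) - (toEnd φ u - u) = 0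
  rw [sub_eq_zero]
  rw [← div_eq_mul_inv] at h1
  exact congrArg Additive.ofMul h1

theorem end_torsion {p : ℕ} (hU : ∀ u : U, u ^ p = 1) (x : AddMonoid.End (Additive U)) :
    p • x = 0 := by
  ext u
  show p • (x u) = 0
  exact congrArg Additive.ofMul (hU (x u).toMul)

theorem end_two {p : ℕ} (hp : Odd p) (hU : ∀ u : U, u ^ p = 1) {x : AddMonoid.End (Additive U)}
    (h : 2 * x = 0) : x = 0 := by
  obtain ⟨k, hk⟩ := hp
  have h1 := end_torsion hU x
  rw [hk, add_smul, one_smul, mul_smul] at h1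
  have h2 : (2 : ℕ) • (k • x) = k • (2 * x) := by
    rw [two_mul, two_smul, nsmul_add]
  rw [h2, h, smul_zero, zero_add] at h1
  exact h1

end toEnd

theorem ww_sq {F : Type*} [Field F] {s : F} (hs : s ≠ 0) : ww s * ww s = -1 := by
  rw [ww_def]
  apply SL2.ext2 <;> simp [SL2.mul_entry, hs]

theorem psl2_no_quad {p : ℕ} [Fact p.Prime] (hp : p ≠ 2) {F : Type*} [Field F] [Fintype F] [CharP F p]
    {U : Type*} [CommGroup U] (hU : ∀ u : U, u ^ p = 1) (τ : SL F →* MulAut U)
    (hker : ∀ g, τ g = 1 → g = 1 ∨ g = -1) (hz : τ (-1) = 1) (g : SL F) (hq : QuadAut (τ g)) :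
    τ g = 1 := by
  have hodd : Odd p := (Fact.out : p.Prime).odd_of_ne_two hp
  -- `g ^ p = ± 1`
  have hgp : τ (g ^ p) = 1 := by
    apply toEnd_injective
    rw [map_pow, map_pow, map_one]
    have h1 := toEnd_quad hq
    have h2 : ∀ n : ℕ, (toEnd (τ g)) ^ n = 1 + n • (toEnd (τ g) - 1) := by
      intro n
      induction n with
      | zero => simp
      | succ k ih =>
        rw [pow_succ, ih]
        have hX : toEnd (τ g) = 1 + (toEnd (τ g) - 1) := by abel
        have : (1 + k • (toEnd (τ g) - 1)) * toEnd (τ g)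
            = 1 + (k + 1) • (toEnd (τ g) - 1) + k • ((toEnd (τ g) - 1) * (toEnd (τ g) - 1)) := by
          generalize toEnd (τ g) - 1 = Y at hX ⊢
          rw [hX, add_mul, one_mul, mul_add, mul_one, smul_mul_assoc, succ_nsmul]
          abel
        rw [this, h1, smul_zero, add_zero]
    rw [h2, end_torsion hU, add_zero]
  obtain ⟨g', hg', hτ⟩ : ∃ g' : SL F, g' ^ p = 1 ∧ τ g' = τ g := by
    rcases hker _ hgp with h | h
    · exact ⟨g, h, rfl⟩
    · refine ⟨-g, ?_, ?_⟩
      · rw [hodd.neg_pow, h, neg_neg]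
      · have : -g = (-1) * g := by simp
        rw [this, map_mul, hz, one_mul]
  have hP : IsPGroup p (Subgroup.zpowers g') := by
    rintro ⟨y, hy⟩
    obtain ⟨k, rfl⟩ := Subgroup.mem_zpowers_iff.1 hy
    refine ⟨1, Subtype.ext ?_⟩
    show (g' ^ k) ^ p ^ 1 = 1
    rw [pow_one, ← zpow_natCast, ← _root_.zpow_mul, mul_comm, _root_.zpow_mul, zpow_natCast, hg', _root_.one_zpow]
  obtain ⟨Q, hQ⟩ := hP.exists_le_sylow
  obtain ⟨c, hc⟩ := exists_conj_upper p Q
  obtain ⟨s, hs⟩ := SL2.mem_upper_iff.1 ((hc g').1 (hQ (Subgroup.mem_zpowers g')))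
  by_cases hs0 : s = 0
  · rw [hs0, SL2.up_zero] at hs
    have : g' = 1 := by
      have h := congrArg (fun x => c⁻¹ * x * c) hs
      simpa [mul_assoc] using h
    rw [← hτ, this, map_one]
  exfalso
  have hqa : QuadAut (τ (SL2.up s)) := by
    rw [← hs, map_mul, map_mul, map_inv, hτ]
    exact hq.conj (τ c)
  have hconj : SL2.lo (-s⁻¹) = ww s * SL2.up s * (ww s)⁻¹ := by
    have := (SL2.stdSt2 F).conj_x hs0 s
    have h2 : ww s * SL2.up s * (ww s)⁻¹ = SL2.lo (-(s⁻¹ ^ 2 * s)) := this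
    rw [h2]; congr 2; field_simp
  have hqb : QuadAut (τ (SL2.lo (-s⁻¹))) := by
    rw [hconj, map_mul, map_mul, map_inv]
    exact hqa.conj (τ (ww s))
  set a := toEnd (τ (SL2.up s)) with ha
  set b := toEnd (τ (SL2.lo (-s⁻¹))) with hb
  have e1 : (1 + (a - 1)) = a := by abel
  have e2 : (1 + (b - 1)) = b := by abel
  have haba : a * b * a = toEnd (τ (ww s)) := by
    rw [ha, hb, ← map_mul, ← map_mul, ← map_mul, ← map_mul, ← ww_def]
  have hbab : b * a * b = toEnd (τ (ww s)) := by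
    rw [ha, hb, ← map_mul, ← map_mul, ← map_mul, ← map_mul, ← ww_eq' hs0]
  have hww : toEnd (τ (ww s)) * toEnd (τ (ww s)) = 1 := by
    rw [← map_mul, ← map_mul, ww_sq hs0, hz, map_one]
  have k1 : (a - 1) * (b - 1) = 0 := by
    apply end_two hodd hU
    apply ring_key (a - 1) (b - 1) (toEnd_quad hqa) (toEnd_quad hqb)
    · rw [e1, e2, haba, hbab]
    · rw [e1, e2, haba, hww]
  have k2 : (b - 1) * (a - 1) = 0 := by
    apply end_two hodd hU
    apply ring_key (b - 1) (a - 1) (toEnd_quad hqb) (toEnd_quad hqa)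
    · rw [e1, e2, haba, hbab]
    · rw [e1, e2, hbab, hww]
  have k3 : a - 1 = b - 1 := by
    apply ring_eq (a - 1) (b - 1) (toEnd_quad hqa) (toEnd_quad hqb) _ k1 k2
    rw [e1, e2, haba, hbab]
  have k4 : τ (SL2.up s) = τ (SL2.lo (-s⁻¹)) := toEnd_injective (sub_left_injective k3)
  have k5 : τ (SL2.up s * (SL2.lo (-s⁻¹))⁻¹) = 1 := by
    rw [map_mul, map_inv, k4, mul_inv_cancel]
  rcases hker _ k5 with h | h
  · have := congrArg (fun m : SL F => (m : Matrix (Fin 2) (Fin 2) F) 0 1) h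
    simp [SL2.lo_inv, SL2.mul_entry] at this
    exact hs0 this
  · have := congrArg (fun m : SL F => (m : Matrix (Fin 2) (Fin 2) F) 0 1) h
    simp [SL2.lo_inv, SL2.mul_entry] at this
    exact hs0 this

end Cfsg.Agent.Lib.Helper85.Qd
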