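import Mathlib

set_option autoImplicit false

namespace Cfsg.Agent.Lib.Helper85.Qd

/-- conjugation action of a normalizing subgroup. -/
noncomputable def conjActHom {G : Type*} [Group G] (V H : Subgroup G)
    (hHV : H ≤ Subgroup.normalizer (V : Set G)) : ↥H →* MulAut ↥V :=
  { toFun := fun h =>
      { toFun := fun v => ⟨(h : G) * (v : G) * (h : G)⁻¹,
          (Subgroup.mem_normalizer_iff.mp (hHV h.2) (v : G)).mp v.2⟩
        invFun := fun v => ⟨(h : G)⁻¹ * (v : G) * (h : G), by
          have := (Subgroup.mem_normalizer_iff.mp (hHV h.2) ((h : G)⁻¹ * (v : G) * (h : G))).mpr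
            (by simp [mul_assoc])
          exact this⟩
        left_inv := fun v => by ext; simp [mul_assoc]
        right_inv := fun v => by ext; simp [mul_assoc]
        map_mul' := fun v w => by ext; simp [mul_assoc] }
    map_one' := by ext; simp
    map_mul' := fun a b => by ext; simp [mul_assoc] }

theorem exists_faithful_action {G : Type*} [Group G] (V H : Subgroup G)
    (hHV : H ≤ Subgroup.normalizer (V : Set G))
    [hn : ((Subgroup.centralizer (V : Set G)).subgroupOf H).Normal] :
    ∃ σ : (↥H ⧸ (Subgroup.centralizer (V : Set G)).subgroupOf H) →* MulAut ↥V,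
      Function.Injective σ ∧
      ∀ (h : ↥H) (v : ↥V), ((σ (QuotientGroup.mk h) v : ↥V) : G) = (h : G) * (v : G) * (h : G)⁻¹ := by
  have hk : ∀ h : ↥H, h ∈ (Subgroup.centralizer (V : Set G)).subgroupOf H ↔
      conjActHom V H hHV h = 1 := by
    intro h
    rw [Subgroup.mem_subgroupOf, Subgroup.mem_centralizer_iff]
    constructor
    · intro hc
      ext v
      have := hc (v : G) v.2
      show (h : G) * (v : G) * (h : G)⁻¹ = (v : G)
      rw [← this]; simp
    · intro h1 v hv
      have := congrArg (fun f : MulAut ↥V => ((f ⟨v, hv⟩ : ↥V) : G)) h1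
      have h2 : (h : G) * v * (h : G)⁻¹ = v := this
      rw [mul_inv_eq_iff_eq_mul] at h2
      exact h2.symm
  refine ⟨QuotientGroup.lift _ (conjActHom V H hHV) (fun h hh => MonoidHom.mem_ker.mpr ((hk h).mp hh)), ?_, ?_⟩
  · rw [injective_iff_map_eq_one]
    intro x
    induction x using QuotientGroup.induction_on with
    | H h =>
      intro hx
      have hx' : conjActHom V H hHV h = 1 := hx
      exact (QuotientGroup.eq_one_iff h).mpr ((hk h).mpr hx')
  · intro h v
    rfl

end Cfsg.Agent.Lib.Helper85.Qd
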